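import Mathlib
import Cfsg.Agent.Core.SylowOf
import Cfsg.Agent.Core.MinNormal
import Cfsg.Agent.Core.Coprime

/-!
The alternating `p`/`p'` residual series and a counting lemma for complements.
-/

set_option autoImplicit false

namespace Cfsg.Agent.Pw

open Subgroup Cfsg.Agent.Core

universe u

variable {p : ℕ} [hp : Fact p.Prime]

/-- numbers prime to `p` (`true`) or powers of `p` (`false`) -/
def TN (p : ℕ) : Bool → ℕ → Prop
  | true, n => n.Coprime p
  | false, n => ∃ a, n = p ^ a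

omit hp in
theorem TN.mul {b : Bool} {m n : ℕ} (h : TN p b m) (h' : TN p b n) : TN p b (m * n) := by
  cases b
  · obtain ⟨i, rfl⟩ := h
    obtain ⟨j, rfl⟩ := h'
    exact ⟨i + j, (pow_add _ _ _).symm⟩
  · exact Nat.Coprime.mul_left h h'

omit hp in
theorem TN.cop {b : Bool} {m n : ℕ} (h : TN p b m) (h' : TN p (!b) n) : m.Coprime n := by
  cases b
  · obtain ⟨i, rfl⟩ := h
    exact (Nat.Coprime.pow_right i h').symm
  · obtain ⟨i, rfl⟩ := h'
    exact Nat.Coprime.pow_right i h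

omit hp in
theorem TN.one (b : Bool) : TN p b 1 := by
  cases b
  · exact ⟨0, rfl⟩
  · exact Nat.coprime_one_left p

variable {G G' : Type*} [Group G] [Group G']

/-- `p'`-elements (`true`) or `p`-elements (`false`) -/
def Ty (p : ℕ) (b : Bool) (g : G) : Prop := ∃ n, TN p b n ∧ g ^ n = 1

section
omit hp

theorem Ty.map {b : Bool} {g : G} (h : Ty p b g) (f : G →* G') : Ty p b (f g) :=
  h.imp fun _ h => ⟨h.1, by rw [← map_pow, h.2, map_one]⟩

theorem Ty.of_map {b : Bool} {g : G} {f : G →* G'} (hf : Function.Injective f) (h : Ty p b (f g)) :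
    Ty p b g := h.imp fun _ h => ⟨h.1, hf (by rw [map_pow, h.2, map_one])⟩

theorem Ty.zpow {b : Bool} {g : G} (h : Ty p b g) (i : ℤ) : Ty p b (g ^ i) :=
  h.imp fun n h => ⟨h.1, by rw [← zpow_natCast, ← zpow_mul, mul_comm, zpow_mul, zpow_natCast, h.2, one_zpow]⟩

theorem Ty.inv {b : Bool} {g : G} (h : Ty p b g) : Ty p b g⁻¹ := by simpa using h.zpow (-1)

theorem Ty.conj {b : Bool} {g : G} (h : Ty p b g) (x : G) : Ty p b (x * g * x⁻¹) :=
  h.map (MulAut.conj x).toMonoidHom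

theorem Ty.one (b : Bool) : Ty p b (1 : G) := ⟨1, TN.one b, one_pow _⟩

theorem Ty.mul {b : Bool} {g h : G} (h1 : Ty p b g) (h2 : Ty p b h) (hc : Commute g h) :
    Ty p b (g * h) := by
  obtain ⟨m, a, e⟩ := h1
  obtain ⟨n, a', e'⟩ := h2
  exact ⟨m * n, a.mul a', by rw [hc.mul_pow, pow_mul, e, mul_comm m, pow_mul, e', one_pow, one_pow, mul_one]⟩

theorem Ty.of_pow {b : Bool} {g : G} {n : ℕ} (hn : TN p b n) (h : Ty p b (g ^ n)) : Ty p b g := by
  obtain ⟨m, a, e⟩ := h
  exact ⟨n * m, hn.mul a, by rw [pow_mul, e]⟩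

theorem Ty.eq_one {b : Bool} {g : G} (h1 : Ty p b g) (h2 : Ty p (!b) g) : g = 1 := by
  obtain ⟨m, a, e⟩ := h1
  obtain ⟨n, a', e'⟩ := h2
  have := Nat.dvd_gcd (orderOf_dvd_of_pow_eq_one e) (orderOf_dvd_of_pow_eq_one e')
  rwa [a.cop a', Nat.dvd_one, orderOf_eq_one_iff] at this

end

theorem decomp [Finite G] (b : Bool) (g : G) :
    ∃ i j : ℤ, g ^ i * g ^ j = g ∧ Ty p b (g ^ i) ∧ Ty p (!b) (g ^ j) := by
  obtain ⟨a, m, hm, e⟩ := Nat.exists_eq_pow_mul_and_not_dvd (orderOf_pos g).ne' p hp.out.ne_one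
  have hc : m.Coprime p := (hp.out.coprime_iff_not_dvd.2 hm).symm
  obtain ⟨i, j, h⟩ := Nat.isCoprime_iff_coprime.2 (Nat.Coprime.pow_right a hc)
  have h0 : g ^ ((p ^ a * m : ℕ) : ℤ) = 1 := by rw [zpow_natCast, ← e, pow_orderOf_eq_one]
  have h1 : Ty p false (g ^ (i * m)) := ⟨p ^ a, ⟨a, rfl⟩, by
    rw [← zpow_natCast, ← zpow_mul, show i * m * (p ^ a : ℕ) = (p ^ a * m : ℕ) * i by push_cast; ring,
      zpow_mul, h0, one_zpow]⟩
  have h2 : Ty p true (g ^ (j * (p ^ a : ℕ))) := ⟨m, hc, by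
    rw [← zpow_natCast, ← zpow_mul, show j * (p ^ a : ℕ) * m = (p ^ a * m : ℕ) * j by push_cast; ring,
      zpow_mul, h0, one_zpow]⟩
  cases b
  · exact ⟨_, _, by rw [← zpow_add, h, zpow_one], h1, h2⟩
  · exact ⟨_, _, by rw [← zpow_add, add_comm, h, zpow_one], h2, h1⟩

theorem cardT [Finite G] {b : Bool} (h : ∀ g : G, Ty p b g) : TN p b (Nat.card G) := by
  cases b
  · exact IsPGroup.iff_card.1 fun g => by
      obtain ⟨_, ⟨a, rfl⟩, e⟩ := h g
      exact ⟨a, e⟩
  · refine (hp.out.coprime_iff_not_dvd.2 fun hd => ?_).symm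
    obtain ⟨g, hg⟩ := exists_prime_orderOf_dvd_card' p hd
    have := (h g).eq_one ⟨p, ⟨1, (pow_one p).symm⟩, hg ▸ pow_orderOf_eq_one g⟩
    rw [this, orderOf_one] at hg
    exact hp.out.ne_one hg.symm

theorem cardT' [Finite G] {b : Bool} {K : Subgroup G} (h : ∀ g ∈ K, Ty p b g) : TN p b (Nat.card K) :=
  cardT fun g => (h g g.2).of_map (f := K.subtype) K.subtype_injective

/-- the subgroup generated by the elements of a type -/
def R (p : ℕ) (b : Bool) (H : Subgroup G) : Subgroup G := closure {g | g ∈ H ∧ Ty p b g}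

omit hp in
theorem R_le {b : Bool} {H : Subgroup G} : R p b H ≤ H := (closure_le _).2 fun _ h => h.1

omit hp in
theorem mem_R {b : Bool} {H : Subgroup G} {g : G} (h : g ∈ H) (h' : Ty p b g) : g ∈ R p b H :=
  subset_closure ⟨h, h'⟩

omit hp in
theorem R_le_of {b : Bool} {H K : Subgroup G} (h : ∀ g ∈ H, Ty p b g → g ∈ K) : R p b H ≤ K :=
  (closure_le _).2 fun g hg => h g hg.1 hg.2

omit hp in
theorem R_mono {b : Bool} {H K : Subgroup G} (h : H ≤ K) : R p b H ≤ R p b K :=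
  R_le_of fun _ hg ht => mem_R (h hg) ht

omit hp in
theorem R_idem {b : Bool} {H : Subgroup G} : R p b H ≤ R p b (R p b H) :=
  R_le_of fun _ hg ht => mem_R (mem_R hg ht) ht

theorem R_map [Finite G] {b : Bool} (H : Subgroup G) (f : G →* G') :
    (R p b H).map f = R p b (H.map f) := by
  refine le_antisymm (map_le_iff_le_comap.2 (R_le_of fun g hg ht => mem_R ⟨g, hg, rfl⟩ (ht.map f)))
    (R_le_of ?_)
  rintro _ ⟨g, hg, rfl⟩ ht
  obtain ⟨i, j, e, h1, h2⟩ := decomp (p := p) b g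
  refine ⟨g ^ i, mem_R (zpow_mem hg i) h1, ?_⟩
  have h3 : f (g ^ j) = 1 := Ty.eq_one (map_zpow f g j ▸ ht.zpow j) (h2.map f)
  conv_rhs => rw [← e, map_mul, h3, mul_one]

theorem R_normal [Finite G] {b : Bool} (H : Subgroup G) [hH : H.Normal] : (R p b H).Normal :=
  normal_iff_map_conj_eq.2 fun g => (R_map H _).trans (congrArg _ (normal_iff_map_conj_eq.1 hH g))

theorem pow_mem_R [Finite G] {b : Bool} {H : Subgroup G} {g : G} (hg : g ∈ H) :
    ∃ n, TN p (!b) n ∧ g ^ n ∈ R p b H := by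
  obtain ⟨i, j, e, h1, n, h2, h3⟩ := decomp (p := p) b g
  refine ⟨n, h2, ?_⟩
  rw [← e, ((Commute.refl g).zpow_zpow i j).mul_pow, h3, mul_one]
  exact pow_mem (mem_R (zpow_mem hg i) h1) n

theorem all_of_R [Finite G] {b : Bool} {H : Subgroup G} (h : R p b H = ⊥) :
    ∀ g ∈ H, Ty p (!b) g := fun _ hg => by
  obtain ⟨n, h1, h2⟩ := pow_mem_R (p := p) (b := b) hg
  exact ⟨n, h1, by rwa [h] at h2⟩

/-- alternating types, beginning with `p'` -/
def par : ℕ → Bool
  | 0 => true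
  | k + 1 => !par k

/-- the alternating residual series -/
def F (p : ℕ) : ℕ → Subgroup G → Subgroup G
  | 0, H => H
  | k + 1, H => R p (par k) (F p k H)

omit hp in
theorem F_mono (k : ℕ) {H K : Subgroup G} (h : H ≤ K) : F p k H ≤ F p k K := by
  induction k with
  | zero => exact h
  | succ k ih => exact R_mono ih

theorem F_map [Finite G] (k : ℕ) (H : Subgroup G) (f : G →* G') :
    (F p k H).map f = F p k (H.map f) := by
  induction k with
  | zero => rfl
  | succ k ih => exact (R_map _ f).trans (congrArg _ ih)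

theorem F_normal [Finite G] (k : ℕ) (H : Subgroup G) [hH : H.Normal] : (F p k H).Normal := by
  induction k with
  | zero => exact hH
  | succ k ih => exact R_normal _

omit hp in
theorem F_anti {k l : ℕ} (h : k ≤ l) (H : Subgroup G) : F p l H ≤ F p k H := by
  induction h with
  | refl => exact le_rfl
  | step _ ih => exact R_le.trans ih

theorem F_sub [Finite G] (k : ℕ) (H : Subgroup G) : (F p k (⊤ : Subgroup H)).map H.subtype = F p k H := by
  rw [F_map, ← MonoidHom.range_eq_map, range_subtype]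

/-- the series reaches the trivial subgroup -/
def Nil (p : ℕ) (G : Type*) [Group G] : Prop := ∃ n, F p n (⊤ : Subgroup G) = ⊥

theorem Nil.sub [Finite G] (h : Nil p G) (H : Subgroup G) : Nil p H :=
  h.imp fun n h => (map_eq_bot_iff_of_injective _ H.subtype_injective).1
    (le_bot_iff.1 ((F_sub n H).le.trans ((F_mono n le_top).trans h.le)))

theorem Nil.quot [Finite G] (h : Nil p G) (N : Subgroup G) [N.Normal] : Nil p (G ⧸ N) :=
  h.imp fun n h => by
    rw [← map_top_of_surjective _ (QuotientGroup.mk'_surjective N), ← F_map, h, Subgroup.map_bot]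

omit hp in
theorem Nil.stuck (h : Nil p G) {W : Subgroup G} (hW : ∀ b, W ≤ R p b W) : W = ⊥ := by
  obtain ⟨n, h⟩ := h
  refine le_bot_iff.1 (le_trans ?_ h.le)
  clear h
  induction n with
  | zero => exact le_top
  | succ n ih => exact (hW _).trans (R_mono ih)

theorem nil_of [Finite G] (h : IsPSolvable p G) : Nil p G := by
  obtain ⟨n, H, h0, h1, -, hN, h2⟩ := h
  have key : ∀ j (hj : j ≤ n), F p (2 * j) ⊤ ≤ H ⟨n - j, by omega⟩ := by
    intro j hj
    induction j with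
    | zero => exact h1.ge
    | succ j ih =>
      have hlt : n - (j + 1) < n := by omega
      have e1 : (⟨n - j, by omega⟩ : Fin (n + 1)) = Fin.succ ⟨n - (j + 1), hlt⟩ :=
        Fin.ext (by simp; omega)
      have h3 := ih (by omega)
      rw [e1] at h3
      have := hN (Fin.castSucc ⟨n - (j + 1), hlt⟩)
      obtain ⟨b, hb⟩ : ∃ b, TN p (!b) ((H (Fin.castSucc ⟨n - (j + 1), hlt⟩)).relIndex
          (H (Fin.succ ⟨n - (j + 1), hlt⟩))) :=
        (h2 _).elim (fun h => ⟨true, h⟩) fun h => ⟨false, h⟩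
      have h4 : R p b (F p (2 * j) ⊤) ≤ H (Fin.castSucc ⟨n - (j + 1), hlt⟩) :=
        R_le_of fun g hg ht => by
          obtain ⟨m, a, e⟩ := ht
          have h5 := (H (Fin.castSucc ⟨n - (j + 1), hlt⟩)).pow_relIndex_mem (h3 hg)
          have h6 := (QuotientGroup.eq_one_iff _).2 h5
          rw [← QuotientGroup.eq_one_iff]
          exact Ty.eq_one (p := p) (b := b) ⟨m, a, by rw [← QuotientGroup.mk_pow, e, QuotientGroup.mk_one]⟩ ⟨_, hb, h6⟩
      refine le_trans ?_ h4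
      change R p (!par (2 * j)) (R p (par (2 * j)) _) ≤ _
      by_cases hb' : b = par (2 * j)
      · rw [hb']; exact R_le
      · rw [show (!par (2 * j)) = b by revert hb'; cases b <;> cases par (2 * j) <;> simp]
        exact R_mono R_le
  exact ⟨2 * n, le_bot_iff.1 ((key n le_rfl).trans (by rw [← h0]; simp))⟩

theorem cen [Finite G] {b : Bool} {N : Subgroup G} (hN : N ≤ R p b N)
    (h : ∀ g ∈ N, ∃ n, TN p b n ∧ ∀ x ∈ N, x * g ^ n = g ^ n * x) : ∀ g ∈ N, Ty p b g := by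
  have h1 : TN p b (center N).index := cardT fun g => by
    obtain ⟨g, rfl⟩ := QuotientGroup.mk_surjective g
    obtain ⟨n, a, e⟩ := h g g.2
    exact ⟨n, a, (QuotientGroup.eq_one_iff (g ^ n)).2 (mem_center_iff.2 fun x => Subtype.ext (e x x.2))⟩
  have h2 : R p b (⊤ : Subgroup N) = ⊤ := by
    refine map_injective N.subtype_injective ?_
    rw [R_map, ← MonoidHom.range_eq_map, range_subtype]
    exact le_antisymm R_le hN
  have h3 : ∀ g ∈ R p b (⊤ : Subgroup N), Ty p b (MonoidHom.transferCenterPow N g) := by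
    intro g hg
    induction hg using closure_induction with
    | mem g hg => exact hg.2.map _
    | one => rw [map_one]; exact Ty.one b
    | mul x y _ _ a a' => rw [map_mul]; exact a.mul a' (mul_comm' _ _)
    | inv x _ a => rw [map_inv]; exact a.inv
  intro g hg
  exact (Ty.of_pow h1 ((h3 ⟨g, hg⟩ (h2.ge trivial)).map (center N).subtype)).map N.subtype

theorem comm_of_min [Finite G] {q : ℕ} [Fact q.Prime] {W : Subgroup G} [W.Normal] (hW : IsPGroup q W)
    (hm : ∀ M : Subgroup G, M.Normal → M ≤ W → M = ⊥ ∨ M = W) : ∀ x ∈ W, ∀ y ∈ W, x * y = y * x := by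
  intro x hx y hy
  by_cases h : W = ⊥
  · subst h; rw [mem_bot.1 hx, one_mul, mul_one]
  have := (W.nontrivial_iff_ne_bot).2 h
  have h1 := ((center W).nontrivial_iff_ne_bot).1 hW.center_nontrivial
  obtain ⟨z, hz, rfl⟩ := ((hm ((center W).map W.subtype) inferInstance (map_subtype_le _)).resolve_left
    (mt (map_eq_bot_iff_of_injective _ W.subtype_injective).1 h1)).ge hy
  exact congrArg Subtype.val (mem_center_iff.1 hz ⟨x, hx⟩)

theorem count [Finite G] {t : Bool} {W Y : Subgroup G} [hW : W.Normal] [hY : Y.Normal] (hWY : W ≤ Y)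
    (hm : ∀ M : Subgroup G, M.Normal → M ≤ W → M = ⊥ ∨ M = W)
    (hc : ∀ x ∈ W, ∀ y ∈ W, x * y = y * x) (hA : ∀ w ∈ W, Ty p t w)
    (hq : ∀ y ∈ Y, ∃ n, TN p (!t) n ∧ y ^ n ∈ W) (hC : ∀ w ∈ W, (∀ y ∈ Y, y * w = w * y) → w = 1)
    {a b : G} (hs : W ⊔ closure {a, b} = ⊤) (ha : ¬ W ≤ centralizer {a}) :
    ∃ w ∈ W, closure {a, b * w} = ⊤ := by
  by_contra! hn
  have hs' : ∀ w ∈ W, ∀ g : G, ∃ n ∈ W, n⁻¹ * g ∈ closure {a, b * w} := fun w hw g => by
    have h1 : W ⊔ closure {a, b * w} = ⊤ := by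
      refine top_le_iff.1 (hs.ge.trans (sup_le le_sup_left ((closure_le _).2 ?_)))
      rintro _ (rfl | rfl)
      · exact mem_sup_right (subset_closure (Or.inl rfl))
      · exact (mul_mem_cancel_right (mem_sup_left hw)).1 (mem_sup_right (subset_closure (Or.inr rfl)))
    obtain ⟨n, hn, c, hc, rfl⟩ := mem_sup_of_normal_left.1 (h1.ge (mem_top g))
    exact ⟨n, hn, by rwa [inv_mul_cancel_left]⟩
  have hd : ∀ w ∈ W, ∀ x ∈ closure {a, b * w}, ∀ y ∈ closure {a, b * w}, x⁻¹ * y ∈ W → x = y := by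
    intro w hw x hx y hy hxy
    have h1 : (W ⊓ closure {a, b * w}).Normal := ⟨fun z hz g => by
      obtain ⟨n, hn, hg⟩ := hs' w hw g
      have h2 := hW.conj_mem z hz.1 (n⁻¹ * g)
      have h3 : g * z * g⁻¹ = n⁻¹ * g * z * (n⁻¹ * g)⁻¹ := by
        have := hc n hn _ h2
        calc g * z * g⁻¹ = n * (n⁻¹ * g * z * (n⁻¹ * g)⁻¹) * n⁻¹ := by group
          _ = _ := by rw [this, mul_inv_cancel_right]
      rw [h3]
      exact mem_inf.2 ⟨h2, mul_mem (mul_mem hg (mem_inf.1 hz).2) (inv_mem hg)⟩⟩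
    rcases hm _ h1 inf_le_left with h | h
    · exact inv_mul_eq_one.1 (h.le (mem_inf.2 ⟨hxy, mul_mem (inv_mem hx) hy⟩))
    · refine (hn w hw (eq_top_iff.2 fun g _ => ?_)).elim
      obtain ⟨n, hn, hg⟩ := hs' w hw g
      exact (mul_mem_cancel_left (inv_mem (mem_inf.1 (h.ge hn)).2)).1 hg
  have key : ∀ w : W, ∃ u : ↥(W ⊓ centralizer {a}), (u : G)⁻¹ * b * u = b * w := fun ⟨w, hw⟩ => by
    have hK : ∀ k ∈ closure {a, b * 1} ⊓ Y, Ty p (!t) k := fun k hk => by
      obtain ⟨n, h1, h2⟩ := hq k hk.2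
      exact ⟨n, h1, (hd 1 (one_mem _) 1 (one_mem _) _ (pow_mem hk.1 n) (by simpa using h2)).symm⟩
    obtain ⟨u, hu, h⟩ := glauberman_of_solvable_right (closure {a, b * 1} ⊓ Y) W le_normalizer_of_normal
      ((cardT' hA).cop (cardT' hK)).symm
      (Group.isSolvable_of_comm fun x y => Subtype.ext (hc x x.2 y y.2)) _ fun k _ => hs' w hw k
    have h1 : ∀ c ∈ closure {a, b * 1}, u⁻¹ * c * u ∈ closure {a, b * w} := fun c hc' => by
      obtain ⟨n, hn, hg⟩ := hs' w hw (u⁻¹ * c * u)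
      suffices n = 1 by simpa [this] using hg
      refine hC n hn fun y hy => ?_
      obtain ⟨m, hm', hk⟩ := hs' 1 (one_mem _) (u * y * u⁻¹)
      have hk' : m⁻¹ * (u * y * u⁻¹) ∈ closure {a, b * 1} ⊓ Y :=
        ⟨hk, Y.mul_mem (Y.inv_mem (hWY hm')) (hY.conj_mem y hy u)⟩
      have e0 : y = u⁻¹ * m * u * (u⁻¹ * (m⁻¹ * (u * y * u⁻¹)) * u) := by group
      generalize m⁻¹ * (u * y * u⁻¹) = k at hk' e0
      have h2 := h _ (show c⁻¹ * k * c ∈ closure {a, b * 1} ⊓ Y from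
        mem_inf.2 ⟨mul_mem (mul_mem (inv_mem hc') (mem_inf.1 hk').1) hc', hY.conj_mem' k hk'.2 c⟩)
      have h3 := hd w hw _ h2 _ (mul_mem (mul_mem (inv_mem hg) (h k hk')) hg) (by
        have := hW.conj_mem' _ (mul_mem (hW.conj_mem' n hn (u⁻¹ * k * u)) (inv_mem hn)) (u⁻¹ * c * u)
        convert this using 1
        group)
      have h4 : u⁻¹ * k * u * n = n * (u⁻¹ * k * u) := by
        calc u⁻¹ * k * u * n = (u⁻¹ * c * u) * (u⁻¹ * (c⁻¹ * k * c) * u) * (u⁻¹ * c * u)⁻¹ * n := by group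
          _ = _ := by rw [h3]; group
      rw [e0, mul_assoc _ _ n, h4, ← mul_assoc, ← hc n hn _ (hW.conj_mem' m hm' u), mul_assoc n]
    have h2 := hd w hw _ (h1 a (subset_closure (Or.inl rfl))) a (subset_closure (Or.inl rfl)) (by
      have := mul_mem (inv_mem hu) (hW.conj_mem' u hu a)
      convert this using 1
      group)
    have h3 := hd w hw _ (h1 _ (subset_closure (Or.inr rfl))) _ (subset_closure (Or.inr rfl)) (by
      have := mul_mem (mul_mem (inv_mem hu) (hW.conj_mem' u hu b)) hw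
      convert this using 1
      group)
    exact ⟨⟨u, hu, mem_centralizer_singleton_iff.2 (by rw [← h2]; nth_rw 2 [h2]; group)⟩,
      by simpa using h3⟩
  choose f hf using key
  have h1 := Nat.card_le_card_of_injective f fun w w' e =>
    Subtype.ext (mul_left_cancel ((hf w).symm.trans (e ▸ hf w')))
  exact ha ((eq_of_le_of_card_ge inf_le_left h1).ge.trans inf_le_right)

end Cfsg.Agent.Pw
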