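import Mathlib
import Cfsg.Agent.BN.PwA
import Cfsg.Agent.Core.Cores
import Cfsg.Agent.H2.SubnormalCore
import Cfsg.Agent.S0071

/-!
Powell's theorem: a simple group with `p`-soluble proper subgroups is `3`-generated.
-/

set_option autoImplicit false

namespace Cfsg.Agent.Pw

open Subgroup Cfsg.Agent.Core

universe u

variable {p : ℕ} [hp : Fact p.Prime]

section
variable {G : Type*} [Group G] [Finite G]

theorem struct {t : Bool} {W Y : Subgroup G} [W.Normal] [Y.Normal] (hn : Nil p G) (hW : W ≠ ⊥)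
    (hm : ∀ M : Subgroup G, M.Normal → M ≤ W → M = ⊥ ∨ M = W) (e : R p t Y = W)
    (hY : Y ≤ R p (!t) Y) : (∀ w ∈ W, Ty p t w) ∧ (∀ y ∈ Y, ∃ n, TN p (!t) n ∧ y ^ n ∈ W) ∧
      ∀ w ∈ W, (∀ y ∈ Y, y * w = w * y) → w = 1 := by
  have h1 : ∀ w ∈ W, Ty p t w := by
    rcases hm _ (R_normal (p := p) (b := !t) W) R_le with h | h
    · simpa using all_of_R h
    · refine (hW (hn.stuck fun b => ?_)).elim
      by_cases hb : b = t
      · rw [hb, ← e]; exact R_idem
      · rw [show b = !t by revert hb; cases b <;> cases t <;> simp]; exact h.ge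
  have h2 : ∀ y ∈ Y, ∃ n, TN p (!t) n ∧ y ^ n ∈ W := fun y hy => e ▸ pow_mem_R hy
  refine ⟨h1, h2, fun w hw hc => ?_⟩
  rcases hm (W ⊓ centralizer (Y : Set G)) inferInstance inf_le_left with h | h
  · exact h.le ⟨hw, hc⟩
  · exact (h1 w hw).eq_one (cen hY (fun y hy => (h2 y hy).imp fun n a => ⟨a.1, (h.ge a.2).2⟩) w
      ((e.ge.trans R_le) hw))

omit [Finite G] hp in
theorem ne_of_comm {t : Bool} {W Y : Subgroup G} [hW : W.Normal] (hA : ∀ w ∈ W, Ty p t w) {y w : G}
    (hy : y ∈ Y) (hw : w ∈ W) (hn : w ∈ normalizer (Y : Set G)) (h : w * y ≠ y * w) : R p t Y ≠ ⊥ :=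
  fun e => h (by
    have h1 : w * y * w⁻¹ * y⁻¹ ∈ W := by
      rw [mul_assoc, mul_assoc, ← mul_assoc y]
      exact mul_mem hw (hW.conj_mem _ (inv_mem hw) y)
    have h2 := e.le (mem_R (mul_mem ((hn y).1 hy) (inv_mem hy)) (hA _ h1))
    rwa [mem_bot, mul_inv_eq_one, mul_inv_eq_iff_eq_mul] at h2)

theorem norm_F (k : ℕ) {H : Subgroup G} : normalizer (H : Set G) ≤ normalizer (F p k H : Set G) :=
  fun g hg => mem_normalizer_iff_map_conj_eq.2
    ((F_map k H _).trans (congrArg _ (mem_normalizer_iff_map_conj_eq.1 hg)))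

theorem lift2 {G' : Type*} [Group G'] (f : G →* G') (a b : G) :
    (closure {a, b}).map f = closure {f a, f b} := by
  rw [MonoidHom.map_closure, Set.image_pair]

end

theorem two_gen (n : ℕ) : ∀ (G : Type u) [Group G] [Finite G], Nat.card G = n → Nil p G → ∀ k,
    F p k (⊤ : Subgroup G) ≠ ⊥ → ∃ a b : G, F p k (closure {a, b}) ≠ ⊥ := by
  induction n using Nat.strong_induction_on with | _ n ih => ?_
  intro G _ _ hn hG k hk
  have sub : ∀ H : Subgroup G, H ≠ ⊤ → F p k H ≠ ⊥ → ∃ a b : G, F p k (closure {a, b}) ≠ ⊥ := by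
    intro H h1 h2
    obtain ⟨a, b, h⟩ := ih _ (hn ▸ card_lt_of_ne_top H h1) H rfl (hG.sub H) k
      (fun e => h2 (by rw [← F_sub, e, Subgroup.map_bot]))
    exact ⟨a, b, fun e => h ((map_eq_bot_iff_of_injective _ H.subtype_injective).1
      (by rw [F_map, lift2]; exact e))⟩
  have quo : ∀ (N : Subgroup G) [N.Normal], N ≠ ⊥ → ∀ l, ¬ F p l ⊤ ≤ N →
      ∃ a b : G, ¬ F p l (closure {a, b}) ≤ N := by
    intro N _ h1 l h2
    obtain ⟨a, b, h⟩ := ih _ (hn ▸ card_quotient_lt N h1) (G ⧸ N) rfl (hG.quot N) l (fun e => h2 (by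
      rwa [← map_top_of_surjective _ (QuotientGroup.mk'_surjective N), ← F_map, Subgroup.map_eq_bot_iff,
        QuotientGroup.ker_mk'] at e))
    obtain ⟨a, rfl⟩ := QuotientGroup.mk'_surjective N a
    obtain ⟨b, rfl⟩ := QuotientGroup.mk'_surjective N b
    exact ⟨a, b, fun e => h (by
      rwa [← lift2, ← F_map, Subgroup.map_eq_bot_iff, QuotientGroup.ker_mk'])⟩
  match k, hk, sub with
  | 0, hk, _ =>
    obtain ⟨a, ha⟩ := ne_bot_iff_exists_ne_one.1 hk
    exact ⟨a, a, fun e => ha (Subtype.ext (e.le (subset_closure (Or.inl rfl))))⟩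
  | 1, hk, _ =>
    by_contra! h
    exact hk (le_bot_iff.1 (R_le_of fun a _ ha => (h a a).le (mem_R (subset_closure (Or.inl rfl)) ha)))
  | k + 2, hk, sub =>
    have := F_normal (p := p) (k + 2) (⊤ : Subgroup G)
    have := F_normal (p := p) (k + 1) (⊤ : Subgroup G)
    obtain ⟨W, hW, h1, h2, hm⟩ := exists_minimal_normal_le _ hk
    by_cases h3 : F p (k + 2) ⊤ ≤ W
    swap
    · obtain ⟨a, b, h⟩ := quo W h1 _ h3
      exact ⟨a, b, fun e => h (e.le.trans bot_le)⟩
    have e : R p (par (k + 1)) (F p (k + 1) ⊤) = W := le_antisymm h3 h2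
    have hY : F p (k + 1) (⊤ : Subgroup G) ≤ R p (!par (k + 1)) (F p (k + 1) ⊤) := by
      rw [show (!par (k + 1)) = par k from Bool.not_not _]
      exact R_idem
    obtain ⟨hA, hq, hC⟩ := struct hG h1 hm e hY
    have hne : ¬ F p (k + 1) ⊤ ≤ centralizer (W : Set G) := fun h =>
      h1 ((eq_bot_iff_forall _).2 fun w hw => hC w hw fun y hy => (h hy w hw).symm)
    by_cases hc : ∀ x ∈ W, ∀ y ∈ W, x * y = y * x
    · obtain ⟨a, b, h⟩ := quo (centralizer (W : Set G))
        (fun e => h1 (le_bot_iff.1 (e ▸ fun y hy x hx => hc x hx y hy))) _ hne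
      by_cases h4 : W ⊔ closure {a, b} = ⊤
      · by_cases ha : W ≤ centralizer {a}
        · have hb : ¬ W ≤ centralizer {b} := fun hb => h ((F_anti (Nat.zero_le _) _).trans
            ((closure_le _).2 (by
              rintro _ (rfl | rfl) w hw
              exacts [mem_centralizer_singleton_iff.1 (ha hw), mem_centralizer_singleton_iff.1 (hb hw)])))
          obtain ⟨w, -, h5⟩ := count (e.ge.trans R_le) hm hc hA hq hC (by rwa [Set.pair_comm]) hb
          exact ⟨_, _, h5 ▸ hk⟩
        · obtain ⟨w, -, h5⟩ := count (e.ge.trans R_le) hm hc hA hq hC h4 ha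
          exact ⟨_, _, h5 ▸ hk⟩
      · refine sub _ h4 ?_
        obtain ⟨y, hy, h5⟩ := SetLike.not_le_iff_exists.1 h
        simp only [mem_centralizer_iff, not_forall] at h5
        obtain ⟨w, hw, h5⟩ := h5
        exact ne_of_comm hA (F_mono _ le_sup_right hy) hw (norm_F _ (le_normalizer (mem_sup_left hw))) h5
    · have ht : par (k + 1) = true := by
        by_contra ht
        rw [Bool.not_eq_true] at ht
        refine hc (comm_of_min (q := p) (fun g => ?_) hm)
        obtain ⟨_, ⟨i, rfl⟩, h⟩ := ht ▸ hA g g.2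
        exact ⟨i, Subtype.ext h⟩
      rw [ht] at hA hY
      obtain ⟨y, hy, hy', h4⟩ : ∃ y ∈ F p (k + 1) (⊤ : Subgroup G), Ty p false y ∧
          y ∉ centralizer (W : Set G) := by
        by_contra! h
        exact hne (hY.trans (R_le_of h))
      have h5 : (W ⊓ centralizer {y}).relIndex W ≠ 1 := fun h => h4 fun w hw =>
        mem_centralizer_singleton_iff.1 (relIndex_eq_one.1 h hw).2
      obtain ⟨q, hq', h6⟩ := Nat.exists_prime_and_dvd h5
      have := Fact.mk hq'
      obtain ⟨Q, hQ, h7⟩ := exists_invariant_isSylowOf (zpowers y) W le_normalizer_of_normal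
        ((cardT' (b := false) (by rintro _ ⟨i, rfl⟩; exact hy'.zpow i)).cop (cardT' hA))
        (Or.inl inferInstance) q
      obtain ⟨w, hw, h8⟩ : ∃ w ∈ Q, w * y ≠ y * w := by
        by_contra! h
        exact hQ.not_dvd (h6.trans (relIndex_dvd_of_le_left _ (le_inf hQ.le fun w hw =>
          mem_centralizer_singleton_iff.2 (h w hw))))
      have h9 : normalizer (Q : Set G) ≠ ⊤ := fun h => by
        have h10 := (hm Q (normalizer_eq_top_iff.1 h) hQ.le).resolve_left fun h => h8 (by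
          rw [mem_bot.1 (h.le hw), one_mul, mul_one])
        exact hc (comm_of_min (h10 ▸ hQ.isPGroup) hm)
      refine sub _ h9 ?_
      have hyN := h7 (mem_zpowers y)
      have h10 : y ∈ F p (k + 1) (normalizer (Q : Set G)) := by
        have h11 : (F p (k + 1) (normalizer (Q : Set G))).map (QuotientGroup.mk' W) =
            (F p (k + 1) ⊤).map (QuotientGroup.mk' W) := by
          rw [F_map, F_map, ← hQ.frattini_top, Subgroup.map_sup, QuotientGroup.map_mk'_self, bot_sup_eq]
        obtain ⟨z, hz, h12⟩ := h11.ge ⟨y, hy, rfl⟩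
        have h13 := hA _ (QuotientGroup.eq.1 h12)
        rw [← F_sub] at hz ⊢
        obtain ⟨z, hz, rfl⟩ := hz
        have := F_normal (p := p) (k + 1) (⊤ : Subgroup (normalizer (Q : Set G)))
        refine ⟨⟨y, hyN⟩, (QuotientGroup.eq_one_iff _).1 (Ty.eq_one (p := p) (b := false)
          ((Ty.of_map (subtype_injective _) hy').map (QuotientGroup.mk' _)) ?_), rfl⟩
        have h14 := (Ty.of_map (g := z⁻¹ * ⟨y, hyN⟩) (subtype_injective _) h13).map
          (QuotientGroup.mk' (F p (k + 1) ⊤))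
        rwa [map_mul, map_inv, QuotientGroup.mk'_apply, (QuotientGroup.eq_one_iff z).2 hz, inv_one,
          one_mul] at h14
      change R p (par (k + 1)) _ ≠ ⊥
      rw [ht]
      exact ne_of_comm hA h10 (hQ.le hw) (norm_F _ (le_normalizer (le_normalizer hw))) h8

/-- the local hypothesis on `x` -/
def Loc (p : ℕ) {G : Type*} [Group G] (x : G) : Prop :=
  ∀ b : G, ∃ N : Subgroup G, x ∈ N ∧ b ∈ normalizer (N : Set G) ∧ F p 2 N = ⊥

theorem Loc.map {G G' : Type*} [Group G] [Group G'] [Finite G] {x : G} (h : Loc p x) {f : G →* G'}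
    (hf : Function.Surjective f) : Loc p (f x) := fun b => by
  obtain ⟨b, rfl⟩ := hf b
  obtain ⟨N, h1, h2, h3⟩ := h b
  exact ⟨N.map f, ⟨x, h1, rfl⟩, le_normalizer_map f ⟨b, h2, rfl⟩, by rw [← F_map, h3, Subgroup.map_bot]⟩

theorem Loc.sub {G : Type*} [Group G] [Finite G] {H : Subgroup G} {x : H} (h : Loc p (x : G)) :
    Loc p x := fun b => by
  obtain ⟨N, h1, h2, h3⟩ := h b
  refine ⟨N.comap H.subtype, h1, le_normalizer_comap _ h2,
    (map_eq_bot_iff_of_injective _ H.subtype_injective).1 (le_bot_iff.1 ?_)⟩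
  rw [F_map, ← h3]
  exact F_mono _ (map_comap_le _ _)

theorem loc_main (n : ℕ) : ∀ (G : Type u) [Group G] [Finite G], Nat.card G = n → Nil p G →
    ∀ x : G, Ty p false x → Loc p x → F p 2 (normalClosure {x}) = ⊥ := by
  induction n using Nat.strong_induction_on with | _ n ih => ?_
  intro G _ _ hn hG x hx hl
  by_contra hk
  have := F_normal (p := p) 2 (normalClosure {x})
  have hYn := F_normal (p := p) 1 (normalClosure {x})
  have hxN : x ∈ normalClosure {x} := subset_normalClosure rfl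
  obtain ⟨W, hW, h1, h2, hm⟩ := exists_minimal_normal_le _ hk
  have h3 : F p 2 (normalClosure {x}) ≤ W := by
    have h := ih _ (hn ▸ card_quotient_lt W h1) (G ⧸ W) rfl (hG.quot W) _ (hx.map (QuotientGroup.mk' W))
      (hl.map (QuotientGroup.mk'_surjective W))
    rwa [← Set.image_singleton, ← map_normalClosure _ _ (QuotientGroup.mk'_surjective W), ← F_map,
      Subgroup.map_eq_bot_iff, QuotientGroup.ker_mk'] at h
  have e : R p false (F p 1 (normalClosure {x})) = W := le_antisymm h3 h2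
  obtain ⟨hA, hq, hC⟩ := struct hG h1 hm e R_idem
  have hne : ¬ F p 1 (normalClosure {x}) ≤ centralizer (W : Set G) := fun h =>
    h1 ((eq_bot_iff_forall _).2 fun w hw => hC w hw fun y hy => (h hy w hw).symm)
  have hc := comm_of_min (q := p) (W := W) (fun g => by
    obtain ⟨_, ⟨i, rfl⟩, h⟩ := hA g g.2
    exact ⟨i, Subtype.ext h⟩) hm
  obtain ⟨b, hb, h4⟩ : ∃ b ∈ F p 1 (normalClosure {x}), x * b * x⁻¹ * b⁻¹ ∉ centralizer (W : Set G) := by
    by_contra! h
    set π := QuotientGroup.mk' (centralizer (W : Set G))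
    have h5 : (normalClosure {x}).map π ≤ centralizer ((F p 1 (normalClosure {x})).map π : Set _) := by
      have := hYn.map π (QuotientGroup.mk'_surjective _)
      rw [map_le_iff_le_comap]
      refine normalClosure_le_normal ?_
      rintro _ rfl _ ⟨b, hb, rfl⟩
      have h6 : π _ = 1 := (QuotientGroup.eq_one_iff _).2 (h b hb)
      simp only [map_mul, map_inv] at h6
      rw [mul_inv_eq_one, mul_inv_eq_iff_eq_mul] at h6
      exact h6.symm
    have h6 := cen (p := p) (b := false) (N := (normalClosure {x}).map π) (by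
      have := R_normal (p := p) (b := false) (normalClosure {x})
      rw [← R_map]
      exact map_mono (normalClosure_le_normal (by rintro _ rfl; exact mem_R hxN hx))) (by
      rintro _ ⟨g, hg, rfl⟩
      obtain ⟨m, a, h7⟩ := pow_mem_R (p := p) (b := true) hg
      exact ⟨m, a, fun z hz => (h5 hz _ ⟨_, h7, map_pow π g m⟩).symm⟩)
    exact hne (R_le_of fun g hg ht => (QuotientGroup.eq_one_iff g).1
      ((ht.map π).eq_one (h6 _ ⟨g, hg, rfl⟩)))
  by_cases h5 : W ⊔ closure {x, b} = ⊤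
  · obtain ⟨w, -, h6⟩ := count (e.ge.trans R_le) hm hc hA hq hC h5 fun ha => hne (R_le.trans
      (normalClosure_le_normal (by
        rintro _ rfl w hw
        exact mem_centralizer_singleton_iff.1 (ha hw))))
    obtain ⟨N, a1, a2, a3⟩ := hl (b * w)
    have : N.Normal := normal_of_le_normalizer (h6.ge.trans ((closure_le _).2 (by
      rintro _ (rfl | rfl)
      exacts [le_normalizer a1, a2])))
    exact hk (le_bot_iff.1 ((F_mono 2 (normalClosure_le_normal (by rintro _ rfl; exact a1))).trans a3.le))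
  · have hx0 : x ∈ W ⊔ closure {x, b} := mem_sup_right (subset_closure (Or.inl rfl))
    have hb0 : b ∈ W ⊔ closure {x, b} := mem_sup_right (subset_closure (Or.inr rfl))
    have hW0 : W ≤ W ⊔ closure {x, b} := le_sup_left
    generalize W ⊔ closure {x, b} = X at *
    have h6 := ih _ (hn ▸ card_lt_of_ne_top X h5) X rfl (hG.sub X) ⟨x, hx0⟩
      (Ty.of_map (subtype_injective _) hx) (Loc.sub hl)
    have h7 : F p 2 ((normalClosure {(⟨x, hx0⟩ : X)}).map X.subtype) = ⊥ := by
      rw [← F_map, h6, Subgroup.map_bot]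
    have h8 : X ≤ normalizer ((normalClosure {(⟨x, hx0⟩ : X)}).map X.subtype : Set G) :=
      le_normalizer_map_subtype_of_normal X _
    have h9 : x ∈ (normalClosure {(⟨x, hx0⟩ : X)}).map X.subtype := ⟨_, subset_normalClosure rfl, rfl⟩
    generalize (normalClosure {(⟨x, hx0⟩ : X)}).map X.subtype = N at *
    have c1 : x * b * x⁻¹ * b⁻¹ ∈ N := by
      rw [mul_assoc, mul_assoc, ← mul_assoc b]
      exact mul_mem h9 ((h8 hb0 _).1 (inv_mem h9))
    have c2 : x * b * x⁻¹ * b⁻¹ ∈ F p 1 (normalClosure {x}) := mul_mem (hYn.conj_mem b hb x) (inv_mem hb)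
    generalize x * b * x⁻¹ * b⁻¹ = c at *
    obtain ⟨i, j, e1, t1, t2⟩ := decomp (p := p) true c
    have c3 : c ^ i ∉ centralizer (W : Set G) := fun h => h4 (e1 ▸ mul_mem h fun w hw =>
      hc w hw _ (e.le (mem_R (zpow_mem c2 j) t2)))
    simp only [mem_centralizer_iff, not_forall] at c3
    obtain ⟨w, hw, c3⟩ := c3
    exact ne_of_comm hA (Y := F p 1 N) (mem_R (zpow_mem c1 i) t1) hw (norm_F _ (h8 (hW0 hw))) c3 h7

end Cfsg.Agent.Pw
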