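import Mathlib
import Cfsg.Agent.BN.PwB

/-!
The end of the proof of Powell's theorem.
-/

set_option autoImplicit false

namespace Cfsg.Agent.Pw

open Subgroup Cfsg.Agent.Core

universe u

variable {p : ℕ} [hp : Fact p.Prime]

omit hp in
theorem par_two (j : ℕ) : par (2 * j) = true := by
  induction j with
  | zero => rfl
  | succ j ih => exact (Bool.not_not _).trans ih

section
variable {G : Type u} [Group G] [Finite G]

omit hp [Finite G] in
theorem F2 (j : ℕ) (X : Subgroup G) : F p (2 * j + 2) X = R p false (R p true (F p (2 * j) X)) := by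
  change R p (!par (2 * j)) (R p (par (2 * j)) _) = _
  rw [par_two]
  rfl

omit hp [Finite G] in
theorem pgroup_of {K : Subgroup G} (h : ∀ g ∈ K, Ty p false g) : IsPGroup p K := fun g => by
  obtain ⟨_, ⟨i, rfl⟩, e⟩ := h g g.2
  exact ⟨i, Subtype.ext e⟩

omit hp [Finite G] in
theorem ty_of_pgroup {K : Subgroup G} (h : IsPGroup p K) : ∀ g ∈ K, Ty p false g := fun g hg => by
  obtain ⟨i, e⟩ := h ⟨g, hg⟩
  exact ⟨_, ⟨i, rfl⟩, congrArg Subtype.val e⟩

theorem prod_top (hG : Nil p G) {S : Set G} (hS : closure S = ⊤)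
    (h : ∀ u ∈ S, Ty p false u ∧ Loc p u) {r s : G} (hr : Ty p true r) (hs : Ty p true s) :
    Ty p true (r * s) := by
  have h1 : ⊤ ≤ (pCore p (G ⧸ pPrimeCore p G)).comap (QuotientGroup.mk' _) := by
    rw [← hS, closure_le]
    intro u hu
    have h2 := loc_main _ G rfl hG u (h u hu).1 (h u hu).2
    have h3 : R p true (normalClosure {u}) ≤ pPrimeCore p G :=
      le_pPrimeCore (R_normal _) (cardT' (all_of_R (b := false) h2))
    have h4 : R p true ((normalClosure {u}).map (QuotientGroup.mk' (pPrimeCore p G))) = ⊥ := by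
      rwa [← R_map, Subgroup.map_eq_bot_iff, QuotientGroup.ker_mk']
    exact le_pCore (Normal.map inferInstance _ (QuotientGroup.mk'_surjective _))
      (pgroup_of (all_of_R h4)) ⟨u, subset_normalClosure rfl, rfl⟩
  have h2 : ∀ r, Ty p true r → r ∈ pPrimeCore p G := fun r hr =>
    (QuotientGroup.eq_one_iff r).1 ((hr.map (QuotientGroup.mk' _)).eq_one
      (ty_of_pgroup (pCore_isPGroup p) _ (h1 (mem_top r))))
  exact ⟨_, pPrimeCore_coprime p, congrArg Subtype.val
    (pow_card_eq_one' (x := (⟨r * s, mul_mem (h2 r hr) (h2 s hs)⟩ : pPrimeCore p G)))⟩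

theorem prod_cl {S : Set G} (hG : Nil p (closure S)) (h : ∀ u ∈ S, Ty p false u ∧ Loc p u) {r s : G}
    (h1 : r ∈ closure S) (h2 : s ∈ closure S) (hr : Ty p true r) (hs : Ty p true s) :
    Ty p true (r * s) :=
  (prod_top hG closure_closure_coe_preimage (fun u hu =>
    ⟨Ty.of_map (subtype_injective _) (h u hu).1, (h u hu).2.sub⟩) (r := ⟨r, h1⟩) (s := ⟨s, h2⟩)
    (Ty.of_map (subtype_injective _) hr) (Ty.of_map (subtype_injective _) hs)).map (closure S).subtype

theorem noniso {Y : Subgroup G} [Y.Normal] (hY : Y ≤ R p true Y)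
    (h0 : R p false (R p true (R p false Y)) = ⊥) (hT : R p false Y ≠ ⊥) :
    ∃ x ∈ R p false Y, Ty p false x ∧ ∃ h : G, ¬ Ty p true (h * x * h⁻¹ * x⁻¹) := by
  by_contra! hn
  have hN := R_normal (p := p) (b := false) Y
  have := R_normal (p := p) (b := true) (R p false Y)
  set π := QuotientGroup.mk' (R p true (R p false Y))
  have h1 : R p false Y ≤ (center _).comap π := R_le_of fun x hx ht => mem_center_iff.2 fun h => by
    obtain ⟨h, rfl⟩ := QuotientGroup.mk'_surjective _ h
    have hx' := mem_R hx ht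
    have h6 : π _ = 1 := (QuotientGroup.eq_one_iff _).2
      (mem_R (mul_mem (hN.conj_mem x hx' h) (inv_mem hx')) (hn x hx' ht h))
    simp only [map_mul, map_inv] at h6
    rwa [mul_inv_eq_one, mul_inv_eq_iff_eq_mul] at h6
  have h2 := cen (p := p) (b := true) (N := Y.map π) (by rw [← R_map]; exact map_mono hY) (by
    rintro _ ⟨g, hg, rfl⟩
    obtain ⟨m, a, h7⟩ := pow_mem_R (p := p) (b := false) hg
    exact ⟨m, a, fun z _ => map_pow π g m ▸ mem_center_iff.1 (h1 h7) z⟩)
  exact hT (le_bot_iff.1 (R_le_of fun x hx ht => ht.eq_one (all_of_R h0 x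
    ((QuotientGroup.eq_one_iff x).1 ((ht.map π).eq_one (h2 _ ⟨x, hx, rfl⟩))))))

theorem final [IsSimpleGroup G] (hG : ¬ IsPGroup p G) {x h : G} (hx : Ty p false x)
    (hh : ¬ Ty p true (h * x * h⁻¹ * x⁻¹))
    (h5 : ∀ u v w, IsConj x u → IsConj x v → IsConj x w → ∀ r ∈ closure {u, v, w},
      ∀ s ∈ closure {u, v, w}, Ty p true r → Ty p true s → Ty p true (r * s)) : False := by
  have hc : ∀ u, IsConj x u → ∀ g, IsConj x (g * u * g⁻¹) := fun u hu g =>
    hu.trans (isConj_iff.2 ⟨g, rfl⟩)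
  have m1 : ∀ u v w : G, u ∈ closure {u, v, w} := fun _ _ _ => subset_closure (Or.inl rfl)
  have m2 : ∀ u v w : G, v ∈ closure {u, v, w} := fun _ _ _ => subset_closure (Or.inr (Or.inl rfl))
  have m3 : ∀ u v w : G, w ∈ closure {u, v, w} := fun _ _ _ => subset_closure (Or.inr (Or.inr rfl))
  let K : Subgroup G :=
    { carrier := {g | ∀ u, IsConj x u → Ty p true (g * u * g⁻¹ * u⁻¹)}
      one_mem' := fun u _ => by simpa using Ty.one true
      mul_mem' := fun {a b} ha hb u hu => by
        have := h5 _ _ _ (hc _ (hc u hu b) a) (hc u hu b) hu _ (mul_mem (m1 _ _ _) (inv_mem (m2 _ _ _)))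
          _ (mul_mem (m2 _ _ _) (inv_mem (m3 _ _ _))) (ha _ (hc u hu b)) (hb u hu)
        convert this using 1
        group
      inv_mem' := fun {a} ha u hu => by
        have := (ha _ (hc u hu a⁻¹)).inv
        convert this using 1
        group }
  have hK : K.Normal := ⟨fun g hg c u hu => by
    have := (hg _ (hc u hu c⁻¹)).conj c
    convert this using 1
    group⟩
  have hK' : K = ⊥ := hK.eq_bot_or_eq_top.resolve_right fun e => hh (e.ge (mem_top h) x (IsConj.refl x))
  have h6 : ∀ v v', IsConj x v → IsConj x v' → Ty p true (v * v'⁻¹) → v = v' := fun v v' a a' ht => by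
    have h7 : v'⁻¹ * v ∈ K := fun u hu => by
      have e1 := mul_mem (m2 u v v') (inv_mem (m3 u v v'))
      have e2 := mul_mem (mul_mem (m2 u v v') (m1 u v v')) (inv_mem (m2 u v v'))
      have := (h5 u v v' hu a a' _ (mul_mem (mul_mem e2 (inv_mem e1)) (inv_mem e2)) _ e1
        (ht.inv.conj _) ht).conj v'⁻¹
      convert this using 1
      group
    exact (inv_mul_eq_one.1 (hK'.le h7)).symm
  have h7 : x ∈ pCore p G := H2.baer_suzuki_elem fun g => pgroup_of (cen ((closure_le _).2 (by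
    rintro _ (rfl | rfl)
    exacts [mem_R (subset_closure (Or.inl rfl)) hx, mem_R (subset_closure (Or.inr rfl)) (hx.conj g)]))
    fun y hy => by
      obtain ⟨m, a, h8⟩ := pow_mem_R (p := p) (b := true) hy
      refine ⟨m, a, (R_le_of (K := centralizer (closure {x, g * x * g⁻¹} : Set G)) fun r hr ht => ?_) h8⟩
      rw [centralizer_closure]
      have hr' := closure_mono (Set.subset_insert x _) hr
      have h9 : ∀ u, IsConj x u → u ∈ closure {x, x, g * x * g⁻¹} → u * r = r * u := fun u hu hu' => by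
        have := h6 _ _ (hc u hu r) hu (by
          have := h5 _ _ _ (IsConj.refl x) (IsConj.refl x) (hc x (IsConj.refl x) g) _ hr' _
            (mul_mem (mul_mem hu' (inv_mem hr')) (inv_mem hu')) ht (ht.inv.conj u)
          convert this using 1
          group)
        exact (mul_inv_eq_iff_eq_mul.1 this).symm
      rintro _ (rfl | rfl)
      exacts [h9 _ (IsConj.refl _) (m1 _ _ _), h9 _ (hc _ (IsConj.refl _) g) (m3 _ _ _)])
  rcases (inferInstance : (pCore p G).Normal).eq_bot_or_eq_top with e | e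
  · rw [e, mem_bot] at h7
    exact hh (by simpa [h7] using Ty.one true)
  · exact hG (pCore_eq_top_iff.1 e)

theorem start [IsSimpleGroup G] (hG : ¬ IsPGroup p G) (hdvd : p ∣ Nat.card G) :
    ∃ M : Subgroup G, M ≠ ⊤ ∧ F p 2 M ≠ ⊥ := by
  obtain ⟨P⟩ : Nonempty (Sylow p G) := inferInstance
  have hP : (P : Subgroup G) ≠ ⊤ := fun e => hG ((e ▸ P.isPGroup').of_equiv topEquiv)
  have h1 : ¬ ∃ N : Subgroup G, N.Normal ∧ N.IsComplement' (P : Subgroup G) := by
    rintro ⟨N, hN, h⟩
    rcases hN.eq_bot_or_eq_top with rfl | rfl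
    · exact hP (isComplement'_bot_left.1 h)
    · exact P.ne_bot_of_dvd_card hdvd (isComplement'_top_left.1 h)
  rw [S0071.result P] at h1
  push Not at h1
  obtain ⟨Q, hQ, g, hg, h2, h3⟩ := h1
  simp only [mem_centralizer_iff, not_forall] at h3
  obtain ⟨q, hq, h3⟩ := h3
  refine ⟨normalizer (Q : Set G), fun e => ?_, fun e => h3 ?_⟩
  · rcases (normalizer_eq_top_iff.1 e).eq_bot_or_eq_top with rfl | rfl
    · exact h3 (by rw [mem_bot.1 hq, one_mul, mul_one])
    · exact hP (top_le_iff.1 hQ)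
  · have t : Ty p true g := ⟨_, h2, pow_orderOf_eq_one g⟩
    have hq' := le_normalizer hq
    have h4 : q * g * q⁻¹ * g⁻¹ ∈ Q := by
      rw [mul_assoc, mul_assoc, ← mul_assoc g]
      exact mul_mem hq ((hg _).1 (inv_mem hq))
    have h5 := e.le (mem_R (mul_mem (mem_R (mul_mem (mul_mem hq' hg) (inv_mem hq')) (t.conj q))
      (inv_mem (mem_R hg t))) (ty_of_pgroup P.isPGroup' _ (hQ h4)))
    rwa [mem_bot, mul_inv_eq_one, mul_inv_eq_iff_eq_mul] at h5

theorem powell [IsSimpleGroup G] (hna : ¬ IsMulCommutative G) (hdvd : p ∣ Nat.card G)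
    (hprop : ∀ H : Subgroup G, H ≠ ⊤ → IsPSolvable p H) :
    ∃ x y z : G, closure ({x, y, z} : Set G) = ⊤ := by
  by_contra! hno
  have hG : ¬ IsPGroup p G := fun h => hna (by
    have h1 := (center G).nontrivial_iff_ne_bot.1 h.center_nontrivial
    have h2 := (inferInstance : (center G).Normal).eq_bot_or_eq_top.resolve_left h1
    exact ⟨⟨fun a b => mem_center_iff.1 (h2.ge (mem_top b)) a⟩⟩)
  obtain ⟨j, h1, h2⟩ := Nat.exists_not_and_succ_of_not_zero_of_exists
    (p := fun j => ∀ M : Subgroup G, M ≠ ⊤ → F p (2 * j + 2) M = ⊥)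
    (fun h => by
      obtain ⟨M, a, b⟩ := start hG hdvd
      exact b (h M a))
    (by
      choose f hf using fun M : {M : Subgroup G // M ≠ ⊤} => nil_of (hprop M M.2)
      obtain ⟨n, hn⟩ := Finite.exists_le f
      refine ⟨n, fun M hM => le_bot_iff.1 ((F_anti (k := f ⟨M, hM⟩) ((hn _).trans (by omega)) M).trans ?_)⟩
      rw [← F_sub, hf ⟨M, hM⟩, Subgroup.map_bot])
  push Not at h1
  obtain ⟨M, hM, h1⟩ := h1
  obtain ⟨a, b, h3⟩ := two_gen _ M rfl (nil_of (hprop M hM)) _
    (fun e => h1 (by rw [← F_sub, e, Subgroup.map_bot]))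
  have h4 : F p (2 * j + 2) (closure {(a : G), (b : G)}) ≠ ⊥ := fun e =>
    h3 ((map_eq_bot_iff_of_injective _ M.subtype_injective).1 (by rw [F_map, lift2]; exact e))
  generalize (a : G) = a, (b : G) = b at h4
  have h5 : ∀ g, closure {a, b} ≤ closure {a, b, g} := fun g =>
    closure_mono (Set.insert_subset_insert (Set.singleton_subset_iff.2 (Or.inl rfl)))
  have := F_normal (p := p) (2 * j) (⊤ : Subgroup (closure {a, b}))
  have := R_normal (p := p) (b := true) (F p (2 * j) (⊤ : Subgroup (closure {a, b})))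
  obtain ⟨x, hx, t, h, hh⟩ := noniso (p := p) (Y := R p true (F p (2 * j) (⊤ : Subgroup (closure {a, b}))))
    R_idem (by
      rw [← F2]
      refine (F2 (j + 1) _).symm.trans ((map_eq_bot_iff_of_injective _ (subtype_injective _)).1 ?_)
      rw [F_sub]
      exact le_bot_iff.1 ((F_mono _ (h5 1)).trans (h2 _ (hno _ _ _)).le))
    (fun e => h4 (by rw [← F_sub, F2, e, Subgroup.map_bot]))
  have hl : Loc p (x : G) := fun g => ⟨F p (2 * j + 2) (closure {a, b, g}),
    F_mono _ (h5 g) ((F_sub _ _).le ⟨x, (F2 j _).ge hx, rfl⟩),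
    norm_F _ (le_normalizer (subset_closure (Or.inr (Or.inr rfl)))),
    (F2 (j + 1) _).symm.trans (h2 _ (hno _ _ _))⟩
  have t' : Ty p false (x : G) := t.map (closure {a, b}).subtype
  have hc : ∀ u, IsConj (x : G) u → Ty p false u ∧ Loc p u := fun u hu => by
    obtain ⟨c, rfl⟩ := isConj_iff.1 hu
    exact ⟨t'.conj c, hl.map (f := (MulAut.conj c).toMonoidHom) (MulAut.conj c).surjective⟩
  refine final hG (x := x) (h := h) t' (fun e => hh (Ty.of_map (subtype_injective _) e))
    fun u v w a b c r hr s hs => prod_cl (nil_of (hprop _ (hno u v w))) ?_ hr hs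
  rintro _ (rfl | rfl | rfl)
  exacts [hc _ a, hc _ b, hc _ c]

end

end Cfsg.Agent.Pw
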